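import Cfsg.Agent.Comp.ON.SubD

set_option autoImplicit false
set_option maxRecDepth 100000

namespace Cfsg.Agent.Comp.ON
open Cfsg.Agent.Comp

def eM_10L : List (List Nat × List Nat) :=
  [([13, 1, 0, 1, 13, 7, 13, 1, 0, 1, 13, 7, 13, 1, 0, 1, 13, 6, 13, 1, 0, 1, 13, 6, 6, 13, 1, 0, 1, 13, 7, 13, 1, 0, 1, 13, 6, 6, 13, 1, 0, 1, 13, 7, 7, 13, 1, 0, 1, 13, 6, 13, 1, 0, 1, 13, 6, 13, 1, 0, 1, 13, 7, 7, 13, 1, 0, 1, 13, 6, 13, 1, 0, 1, 13, 6, 13, 1, 0, 1, 13, 6, 13, 1, 0, 1, 13, 7, 7, 13, 1, 0, 1, 13, 6, 6, 7, 13, 1, 0, 1, 13, 6, 6, 13, 1, 0, 1, 13, 7, 7, 13, 1, 0, 1, 13, 6], [])]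

theorem eM_10 : ∀ e ∈ eM_10L, ev s3 e.1 = ev s3 e.2 :=
  rep3.eqB inj base (by decide +kernel)


end Cfsg.Agent.Comp.ON
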