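import Cfsg.Agent.Comp.ON.Sub0
import Cfsg.Agent.Comp.ON.Sub1
import Cfsg.Agent.Comp.ON.Sub2

set_option autoImplicit false
set_option maxRecDepth 100000

namespace Cfsg.Agent.Comp.ON
open Cfsg.Agent.Comp

theorem eJ : ∀ e ∈ ((J1.R.map (subst twJ)).map fun w => (w, ([] : List ℕ))), ev s3 e.1 = ev s3 e.2 :=
  eqs_of_eq (eqs_append eJ_0 (eqs_append eJ_1 (eqs_append eJ_2 (eqs_append eJ_3 (eqs_append eJ_4 (eqs_append eJ_5 (eqs_append eJ_6 (eqs_append eJ_7 (eqs_append eJ_8 (eqs_append eJ_9 (eqs_append eJ_10 (eqs_append eJ_11 (eqs_append eJ_12 (eqs_append eJ_13 eJ_14)))))))))))))) (by decide +kernel)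

/-- the images of the generators -/
noncomputable def tJ (x : ℕ) : Cfsg.Spor.ON := ev s3 (twJ.getD x [])

theorem isoJ : Nonempty (J1.G ≃* gen tJ 5) :=
  have := J1.simple
  ⟨(J1.pres.equiv_of_simple (by decide +kernel) tJ (Sat.subst (sat_of_eqs eJ)) (x := 0) (by norm_num)
    (rep3.ne (show neqB 23 122760 T3 (ivl 0 61380) (twJ.getD 0 []) [] = true by decide +kernel))).choose⟩

theorem eM : ∀ e ∈ ((M11.R.map (subst twM)).map fun w => (w, ([] : List ℕ))), ev s3 e.1 = ev s3 e.2 :=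
  eqs_of_eq (eqs_append eM_0 (eqs_append eM_1 (eqs_append eM_2 (eqs_append eM_3 (eqs_append eM_4 (eqs_append eM_5 (eqs_append eM_6 (eqs_append eM_7 (eqs_append eM_8 (eqs_append eM_9 eM_10)))))))))) (by decide +kernel)

/-- the images of the generators -/
noncomputable def tM (x : ℕ) : Cfsg.Spor.ON := ev s3 (twM.getD x [])

theorem isoM : Nonempty (M11.G ≃* gen tM 7) :=
  have := M11.simple
  ⟨(M11.pres.equiv_of_simple (by decide +kernel) tM (Sat.subst (sat_of_eqs eM)) (x := 0) (by norm_num)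
    (rep3.ne (show neqB 23 122760 T3 (ivl 0 61380) (twM.getD 0 []) [] = true by decide +kernel))).choose⟩


end Cfsg.Agent.Comp.ON
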