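import Cfsg.Agent.Comp.ON.SubT

set_option autoImplicit false
set_option maxRecDepth 100000

namespace Cfsg.Agent.Comp.ON
open Cfsg.Agent.Comp

def twJ : List (List Nat) :=
  [[0, 21, 0, 22, 0, 21, 0, 22, 0, 21, 0, 21, 0, 22, 0, 21, 0, 22, 0, 22, 0, 21, 0, 21, 0, 22, 0, 21, 0, 22, 0, 22, 0, 21, 0, 22, 0, 21, 0, 22, 0],
   [0, 21, 0, 22, 0, 22, 0, 21, 0, 21, 0, 22, 0, 22, 0, 21, 0, 21, 0, 22, 0],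
   [22, 0, 21],
   [21, 0, 21, 0, 22, 0, 22, 0, 21, 0, 22, 0, 21, 0, 22, 0, 21, 0, 21, 0, 22, 0, 22],
   [21, 0, 21, 0, 22, 0, 21, 0, 22, 0, 21, 0, 22, 0, 21, 0, 21, 0, 22, 0, 22, 0, 21, 0, 21, 0, 22, 0, 22, 0, 21, 0, 22, 0, 21, 0, 22, 0, 21, 0, 22, 0, 22]]

def twM : List (List Nat) :=
  [[13, 1, 0, 1, 13, 7, 13, 1, 0, 1, 13, 7, 13, 1, 0, 1, 13, 6, 13, 1, 0, 1, 13, 6, 6, 13, 1, 0, 1, 13],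
   [13, 1, 0, 1, 13, 6, 6, 13, 1, 0, 1, 13, 7, 13, 1, 0, 1, 13, 6, 13, 1, 0, 1, 13, 6, 13, 1, 0, 1, 13],
   [13, 1, 0, 1, 13, 6, 13, 1, 0, 1, 13, 7, 13, 1, 0, 1, 13, 7, 13, 1, 0, 1, 13, 6, 6, 13, 1, 0, 1, 13, 7, 13, 1, 0, 1, 13, 7, 7, 13, 1, 0, 1, 13, 6, 6],
   [13, 1, 0, 1, 13, 6, 13, 1, 0, 1, 13, 7, 7, 13, 1, 0, 1, 13, 6, 13, 1, 0, 1, 13, 6, 13, 1, 0, 1, 13, 6, 13, 1, 0, 1, 13, 7, 7, 13, 1, 0, 1, 13, 6, 6],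
   [7, 13, 1, 0, 1, 13, 6, 6, 13, 1, 0, 1, 13, 6, 6, 13, 1, 0, 1, 13, 7],
   [7, 13, 1, 0, 1, 13, 6],
   [6, 13, 1, 0, 1, 13, 7]]


end Cfsg.Agent.Comp.ON
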