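import Cfsg.Agent.Comp.ON.OutR
import Cfsg.Agent.Comp.ON.Base
import Cfsg.Agent.Comp.J1.Main
import Cfsg.Agent.Comp.M11.Main
import Cfsg.Agent.Comp.OutKit
import Cfsg.Agent.Comp.ON.SubN0

set_option autoImplicit false
set_option maxRecDepth 100000

namespace Cfsg.Agent.Comp.ON
open Cfsg.Agent.Comp

noncomputable def T3 : List Net := [n0, n1, n2, n3, n4, n5, n6, n7, on8, on9, on10, on11, on12, on13, on14, on15, on16, on17, on18, on19, on20, sn21, sn22]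

theorem ok3 : TOK 122760 T3 :=
  (TOK.cons n0_ok (TOK.cons n1_ok (TOK.cons n2_ok (TOK.cons n3_ok (TOK.cons n4_ok (TOK.cons n5_ok (TOK.cons n6_ok (TOK.cons n7_ok (TOK.cons on8_ok (TOK.cons on9_ok (TOK.cons on10_ok (TOK.cons on11_ok (TOK.cons on12_ok (TOK.cons on13_ok (TOK.cons on14_ok (TOK.cons on15_ok (TOK.cons on16_ok (TOK.cons on17_ok (TOK.cons on18_ok (TOK.cons on19_ok (TOK.cons on20_ok (TOK.cons sn21_ok (TOK.cons sn22_ok (TOK.nil _))))))))))))))))))))))))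

def E3 : List (List Nat × List Nat) :=
  [([19, 2, 9, 4, 11, 21], [0, 1, 19, 2, 9, 4, 11]),
   ([21, 22], [])]

def eqs3_0L : List (List Nat × List Nat) :=
  [([19, 2, 9, 4, 11, 21], [0, 1, 19, 2, 9, 4, 11])]

def eqs3_1L : List (List Nat × List Nat) :=
  [([21, 22], [])]

theorem eqs3_0_0 : EqsP 122760 0 9 T3 eqs3_0L :=
  eqsP_of ok3 (by norm_num) (by norm_num) (by norm_num) (show eqsP (nat_lit 122760) (nat_lit 17) (nat_lit 0) (nat_lit 9) T3 eqs3_0L = true by decide +kernel)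

theorem eqs3_0_9 : EqsP 122760 9 17 T3 eqs3_0L :=
  eqsP_of ok3 (by norm_num) (by norm_num) (by norm_num) (show eqsP (nat_lit 122760) (nat_lit 17) (nat_lit 9) (nat_lit 8) T3 eqs3_0L = true by decide +kernel)

theorem eqs3_1_0 : EqsP 122760 0 17 T3 eqs3_1L :=
  eqsP_of ok3 (by norm_num) (by norm_num) (by norm_num) (show eqsP (nat_lit 122760) (nat_lit 17) (nat_lit 0) (nat_lit 17) T3 eqs3_1L = true by decide +kernel)

theorem eqs3_0 : ∀ e ∈ eqs3_0L, ev (sig T3) e.1 = ev (sig T3) e.2 := EqsP.eqs (EqsP.join eqs3_0_0 eqs3_0_9) ok3 (by norm_num)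

theorem eqs3_1 : ∀ e ∈ eqs3_1L, ev (sig T3) e.1 = ev (sig T3) e.2 := EqsP.eqs eqs3_1_0 ok3 (by norm_num)

theorem eqs3 : ∀ e ∈ E3, ev (sig T3) e.1 = ev (sig T3) e.2 :=
  (show (eqs3_0L ++ eqs3_1L) = E3 by decide +kernel) ▸ (eqs_append eqs3_0 eqs3_1)

noncomputable def s3 : ℕ → Cfsg.Spor.ON := liftS phi (sig T3)

theorem rep3 : Rep s3 23 122760 T3 phi :=
  (rep2.extend inj ok3 (by intro x hx; interval_cases x <;> rfl) eqs3 (by decide +kernel) rfl).1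


end Cfsg.Agent.Comp.ON
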